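import Cfsg.Agent.Lib.Helper8.LBME

set_option autoImplicit false

/-!
A similarity commuting (up to a scalar) with an isometry of order two of determinant `-1` in
dimension divisible by four has a square multiplier.
-/

namespace Cfsg.Agent.Lib.Helper43.GS

open Matrix

variable {F : Type*} [Field F]

lemma le_of_mul_eq_one {a b : ℕ} (X : Matrix (Fin a) (Fin b) F) (Y : Matrix (Fin b) (Fin a) F)
    (h : X * Y = 1) : a ≤ b := by
  have h1 : (X * Y).rank = a := by rw [h, Matrix.rank_one]; simp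
  have h2 := Matrix.rank_mul_le_left X Y
  have h3 := Matrix.rank_le_width X
  omega

lemma card_eq_of_inv {ι κ : Type*} [Fintype ι] [DecidableEq ι] [Fintype κ] [DecidableEq κ]
    (P : Matrix ι κ F) (P' : Matrix κ ι F) (h1 : P * P' = 1) (h2 : P' * P = 1) :
    Fintype.card ι = Fintype.card κ := by
  have e := (Matrix.toLin'OfInv h1 h2).finrank_eq
  simpa using e

theorem isSquare_mult (h2 : (2 : F) ≠ 0) {ι : Type*} [Fintype ι] [DecidableEq ι]
    (Γ : Matrix ι ι F) (hdet : Γ.det ≠ 0) (g : Matrix ι ι F) (hg : gᵀ * Γ * g = Γ)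
    (hgg : g * g = 1) (hdetg : g.det = -1) {n : ℕ} (hcard : Fintype.card ι = 2 * n)
    (hn : Even n) (H Hi : Matrix ι ι F) (hH1 : H * Hi = 1) (l c : F) (hl : l ≠ 0)
    (hH : Hᵀ * Γ * H = l • Γ) (hc : H * g = c • (g * H)) : IsSquare l := by
  obtain ⟨d₁, d₂, P, P', G₁, G₂, hPP', hP'P, hD, hG⟩ :=
    Cfsg.Agent.Lib.Helper8.LBM.exists_eigen_blocks h2 Γ g hg hgg
  have hsum : d₁ + d₂ = 2 * n := by
    have := card_eq_of_inv P P' hPP' hP'P
    rw [hcard] at this
    simpa using this.symm
  have hdD : (fromBlocks 1 0 0 (-1) : Matrix (Fin d₁ ⊕ Fin d₂) (Fin d₁ ⊕ Fin d₂) F).det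
      = (-1) ^ d₂ := by
    rw [Matrix.det_fromBlocks_zero₂₁, Matrix.det_one, one_mul, Matrix.det_neg, Matrix.det_one]
    simp
  have hd2 : Odd d₂ := by
    have h3 : (P' * g * P).det = g.det := Matrix.det_conj_of_mul_eq_one hP'P hPP'
    rw [hD, hdD, hdetg] at h3
    by_contra hcon
    rw [Nat.not_odd_iff_even] at hcon
    rw [hcon.neg_one_pow] at h3
    have : (2 : F) = 0 := by linear_combination h3
    exact h2 this
  have hd1 : Odd d₁ := by
    by_contra hcon
    rw [Nat.not_odd_iff_even] at hcon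
    have : Odd (d₁ + d₂) := hcon.add_odd hd2
    rw [hsum] at this
    exact (Nat.not_odd_iff_even.2 (even_two_mul n)) this
  have hne : d₁ ≠ d₂ := by
    intro h
    have : d₁ = n := by omega
    rw [this] at hd1
    exact (Nat.not_odd_iff_even.2 hn) hd1
  -- transported matrices
  set H' := P' * H * P with hH'
  set K' := P' * Hi * P with hK'
  have hHK : H' * K' = 1 := by
    rw [hH', hK']
    calc P' * H * P * (P' * Hi * P) = P' * H * (P * P') * Hi * P := by simp only [Matrix.mul_assoc]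
      _ = P' * (H * Hi) * P := by rw [hPP', Matrix.mul_one]; simp only [Matrix.mul_assoc]
      _ = 1 := by rw [hH1, Matrix.mul_one, hP'P]
  have hcD : H' * fromBlocks 1 0 0 (-1) = c • (fromBlocks 1 0 0 (-1) * H') := by
    rw [← hD, hH']
    calc P' * H * P * (P' * g * P) = P' * H * (P * P') * g * P := by simp only [Matrix.mul_assoc]
      _ = P' * (H * g) * P := by rw [hPP', Matrix.mul_one]; simp only [Matrix.mul_assoc]
      _ = c • (P' * g * (P * P') * H * P) := by
          rw [hc, hPP', Matrix.mul_one, Matrix.mul_smul, Matrix.smul_mul]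
          simp only [Matrix.mul_assoc]
      _ = c • (P' * g * P * (P' * H * P)) := by simp only [Matrix.mul_assoc]
  have hform : H'ᵀ * fromBlocks G₁ 0 0 G₂ * H' = l • fromBlocks G₁ 0 0 G₂ := by
    rw [← hG, hH']
    have hT : P'ᵀ * Pᵀ = 1 := by rw [← Matrix.transpose_mul, hPP', Matrix.transpose_one]
    calc (P' * H * P)ᵀ * (Pᵀ * Γ * P) * (P' * H * P)
        = Pᵀ * Hᵀ * (P'ᵀ * Pᵀ) * Γ * (P * P') * H * P := by
          simp only [Matrix.transpose_mul, Matrix.mul_assoc]
      _ = Pᵀ * (Hᵀ * Γ * H) * P := by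
          rw [hT, hPP', Matrix.mul_one, Matrix.mul_one]; simp only [Matrix.mul_assoc]
      _ = l • (Pᵀ * Γ * P) := by
          rw [hH, Matrix.mul_smul, Matrix.smul_mul, Matrix.mul_assoc]
  have hdetG : (fromBlocks G₁ 0 0 G₂).det ≠ 0 := by
    rw [← hG]
    intro h0
    have hT : P'ᵀ * Pᵀ = 1 := by rw [← Matrix.transpose_mul, hPP', Matrix.transpose_one]
    have e : P'ᵀ * (Pᵀ * Γ * P) * P' = Γ := by
      calc P'ᵀ * (Pᵀ * Γ * P) * P' = (P'ᵀ * Pᵀ) * Γ * (P * P') := by simp only [Matrix.mul_assoc]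
        _ = Γ := by rw [hT, hPP', Matrix.one_mul, Matrix.mul_one]
    have hT2 : Pᵀ * P'ᵀ = 1 := by rw [← Matrix.transpose_mul, hP'P, Matrix.transpose_one]
    -- Γ is a product through a singular matrix
    have e2 : Γ.det = (Pᵀ * Γ * P).det * (P' * P'ᵀ).det := by
      conv_lhs => rw [← e]
      rw [Matrix.mul_assoc, Matrix.det_comm' hT hT2, Matrix.mul_assoc, Matrix.det_mul]
    rw [h0, zero_mul] at e2
    exact hdet e2
  rw [Matrix.det_fromBlocks_zero₂₁] at hdetG
  have hG1 : G₁.det ≠ 0 := left_ne_zero_of_mul hdetG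
  obtain ⟨A, B, C, E, hblk⟩ : ∃ A B C E, H' = fromBlocks A B C E :=
    ⟨_, _, _, _, (Matrix.fromBlocks_toBlocks H').symm⟩
  obtain ⟨A', B', C', E', hblk'⟩ : ∃ A B C E, K' = fromBlocks A B C E :=
    ⟨_, _, _, _, (Matrix.fromBlocks_toBlocks K').symm⟩
  rw [hblk, Matrix.fromBlocks_multiply, Matrix.fromBlocks_multiply, Matrix.fromBlocks_smul,
    Matrix.fromBlocks_inj] at hcD
  simp only [Matrix.mul_one, Matrix.mul_zero, add_zero, zero_add, Matrix.one_mul, Matrix.zero_mul,
    Matrix.mul_neg, Matrix.neg_mul] at hcD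
  obtain ⟨cA, cB, cC, cE⟩ := hcD
  by_cases hc1 : c = 1
  · subst hc1
    have hB : B = 0 := by
      rw [one_smul] at cB
      have : (2 : F) • B = 0 := by rw [two_smul]; nth_rewrite 1 [← cB]; simp
      exact (smul_eq_zero.1 this).resolve_left h2
    have hC : C = 0 := by
      rw [one_smul] at cC
      have : (2 : F) • C = 0 := by rw [two_smul]; nth_rewrite 1 [cC]; simp
      exact (smul_eq_zero.1 this).resolve_left h2
    rw [hblk, hB, hC, Matrix.fromBlocks_transpose, Matrix.fromBlocks_multiply,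
      Matrix.fromBlocks_multiply, Matrix.fromBlocks_smul, Matrix.fromBlocks_inj] at hform
    simp only [Matrix.mul_zero, add_zero, Matrix.transpose_zero, Matrix.zero_mul] at hform
    have hA := congrArg Matrix.det hform.1
    rw [Matrix.det_mul, Matrix.det_mul, Matrix.det_transpose, Matrix.det_smul] at hA
    simp only [Fintype.card_fin] at hA
    have hA2 : A.det * A.det = l ^ d₁ := by
      apply mul_right_cancel₀ hG1
      linear_combination hA
    obtain ⟨k, hk⟩ := hd1
    refine ⟨A.det / l ^ k, ?_⟩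
    have hlk : l ^ k ≠ 0 := pow_ne_zero _ hl
    field_simp
    rw [pow_two (A.det), hA2, hk]
    ring
  · exfalso
    have hc1' : (1 - c) ≠ 0 := sub_ne_zero.2 (Ne.symm hc1)
    have hA : A = 0 := by
      have : (1 - c) • A = 0 := by rw [sub_smul, one_smul, ← cA, sub_self]
      exact (smul_eq_zero.1 this).resolve_left hc1'
    have hE : E = 0 := by
      have : (1 - c) • E = 0 := by
        rw [sub_smul, one_smul, sub_eq_zero]
        have := congrArg Neg.neg cE
        simpa using this
      exact (smul_eq_zero.1 this).resolve_left hc1'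
    rw [hblk, hblk', hA, hE, Matrix.fromBlocks_multiply, ← Matrix.fromBlocks_one,
      Matrix.fromBlocks_inj] at hHK
    simp only [Matrix.zero_mul, zero_add, add_zero] at hHK
    have i1 := le_of_mul_eq_one B C' hHK.1
    have i2 := le_of_mul_eq_one C B' hHK.2.2.2
    omega

end Cfsg.Agent.Lib.Helper43.GS
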