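import Cfsg.Agent.Lib.Helper43.GS.T1
import Cfsg.Agent.Lib.Helper44.GraphSplit
import Cfsg.Agent.Lib.Helper80.LBM.K1
import Cfsg.Agent.Lib.Helper63.LBMK1b

set_option autoImplicit false

/-!
The class of a graph involution splits into two classes when the dimension is divisible by four
and `-1` is not in `Ω`.
-/

namespace Cfsg.Agent.Lib.Helper43.GS

open Matrix QuadraticMap Module Cfsg.Agent.Lib.Helper13.OOut Cfsg.Agent.Lib.Helper43.PA
  Cfsg.Agent.Lib.Helper43.PO Cfsg.Agent.Lib.Helper44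

universe u

variable {F : Type u} [Field F] {ι : Type} [Fintype ι] [DecidableEq ι]

theorem isSquare_multF_of_commute [Fintype F] (h2 : (2 : F) ≠ 0) (Q : QuadraticForm F (ι → F))
    (hQ : (polarBilin Q).Nondegenerate) (hn : 5 ≤ Fintype.card ι) (hex : ∃ v, Q v ≠ 0) (m : ℕ)
    (hm : Fintype.card ι = 2 * m) (hme : Even m)
    (g : ↥(Cfsg.Geo.quadSimilarityGroup ⇑Q)) (hχ : chi2 h2 hQ hex m hm g ≠ 1)
    (hord : orderOf (conjPOmega ⇑Q g) = 2)
    (h : ↥(Cfsg.Geo.quadSimilarityGroup ⇑Q))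
    (hcomm : conjPOmega ⇑Q h * conjPOmega ⇑Q g = conjPOmega ⇑Q g * conjPOmega ⇑Q h) :
    IsSquare (multF Q h : F) := by
  have hgS : g ∉ SS Q (exists_ne_zero Q hQ hn) m := by
    intro hg
    apply hχ
    rw [chi2_eq_one_iff]
    exact (mem_SS_odd h2 _ _ _ _).1 hg
  have hgg : conjPOmega ⇑Q g * conjPOmega ⇑Q g = 1 := by
    rw [← pow_two, ← hord, pow_orderOf_eq_one]
  rcases Cfsg.Agent.Lib.Helper80.LBM.graph_normal_form h2 Q hQ hn hm g hgS hgg with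
    ⟨g', hg'c, hg'Q, hg'2, hg'd⟩ | ⟨μ, hμ, -, hμ2, hμd⟩
  · obtain ⟨Γ, -, hΓd, -, hΓ⟩ := Cfsg.Agent.Lib.Helper8.LBM.exists_gram h2 Q hQ
    have hk : h * g' * h⁻¹ * g'⁻¹ ∈ (conjPOmega ⇑Q).ker := by
      rw [MonoidHom.mem_ker, map_mul, map_mul, map_mul, map_inv, map_inv, hg'c, hcomm]
      group
    obtain ⟨c, hc⟩ := (mem_ker_conjPOmega_iff h2 Q hQ hn _).1 hk
    have hc' : ((h : GL ι F) : Matrix ι ι F) * ((g' : GL ι F) : Matrix ι ι F)
        = c • (((g' : GL ι F) : Matrix ι ι F) * ((h : GL ι F) : Matrix ι ι F)) := by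
      have e : h * g' = (h * g' * h⁻¹ * g'⁻¹) * (g' * h) := by group
      have e2 := congrArg (fun x : ↥(Cfsg.Geo.quadSimilarityGroup ⇑Q) =>
        ((x : GL ι F) : Matrix ι ι F)) e
      simp only [Subgroup.coe_mul, Units.val_mul] at e2 hc
      rw [e2, hc, Matrix.smul_mul, Matrix.one_mul]
    refine isSquare_mult h2 Γ hΓd ((g' : GL ι F) : Matrix ι ι F) ?_ ?_ hg'd hm hme
      ((h : GL ι F) : Matrix ι ι F) (((h : GL ι F)⁻¹ : GL ι F) : Matrix ι ι F) ?_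
      (multF Q h : F) c (Units.ne_zero _) ?_ hc'
    · have := (hΓ ((g' : GL ι F) : Matrix ι ι F) 1).1 (fun v => by rw [hg'Q, one_mul])
      rw [this, one_smul]
    · rw [← Units.val_mul, hg'2, Units.val_one]
    · rw [← Units.val_mul, mul_inv_cancel, Units.val_one]
    · exact (hΓ _ _).1 (fun v => multF_spec Q h v)
  · exfalso
    have := Cfsg.Agent.Lib.Helper63.LBM.odd_of_typeII _ μ hμ hμ2 hm hμd
    exact (Nat.not_even_iff_odd.2 this) hme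

theorem splitCount_graph_two [Fintype F] (h2 : (2 : F) ≠ 0) (Q : QuadraticForm F (ι → F))
    (hQ : (polarBilin Q).Nondegenerate) (hn : 5 ≤ Fintype.card ι) (hex : ∃ v, Q v ≠ 0) (m : ℕ)
    (hm : Fintype.card ι = 2 * m) (hme : Even m) (δ : ↥(Cfsg.Geo.quadSimilarityGroup ⇑Q))
    (hδ1 : ¬ IsSquare (multF Q δ : F)) (hδ2 : δ ∈ (chi2 h2 hQ hex m hm).ker)
    (g : ↥(Cfsg.Geo.quadSimilarityGroup ⇑Q)) (hχ : chi2 h2 hQ hex m hm g ≠ 1)
    (hord : orderOf (conjPOmega ⇑Q g) = 2) (hneg : negOneO Q ∉ Cfsg.Omega F ⇑Q) :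
    Cfsg.splitClassCount ((chi2 h2 hQ hex m hm).ker.map (conjPOmega ⇑Q))
        (Cfsg.Inn (Cfsg.POmega F ⇑Q)) (conjPOmega ⇑Q g) = 2 := by
  have hM := ker_psi1_eq' h2 hQ hn hex m hm
  have hMΓ := ker_psi1_le_chi2 h2 hQ hex m hm
  have hrel := relIndex_ker_psi1_chi2 h2 hQ hex m hm δ hδ1 hδ2
  have hNM : Oms Q ⊔ (conjPOmega ⇑Q).ker ≤ (psi1 h2 hQ hex m hm).ker := by
    rw [hM]; exact sup_le_sup_right (Oms_le_SOs Q) _
  have hkerM : (conjPOmega ⇑Q).ker ≤ (psi1 h2 hQ hex m hm).ker := le_sup_right.trans hNM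
  have hK : Cfsg.Inn (Cfsg.POmega F ⇑Q) = (Oms Q ⊔ (conjPOmega ⇑Q).ker).map (conjPOmega ⇑Q) := by
    rw [map_sup_ker_eq, ← inn_eq']
  have hKH : Cfsg.Inn (Cfsg.POmega F ⇑Q) ≤ (chi2 h2 hQ hex m hm).ker.map (conjPOmega ⇑Q) := by
    rw [hK]; exact Subgroup.map_mono (hNM.trans hMΓ)
  have hrelmap : ((psi1 h2 hQ hex m hm).ker.map (conjPOmega ⇑Q)).relIndex
      ((chi2 h2 hQ hex m hm).ker.map (conjPOmega ⇑Q)) = 2 := by
    rw [Subgroup.relIndex_map_map, sup_eq_left.2 hkerM, sup_eq_left.2 (hkerM.trans hMΓ), hrel]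
  rw [splitClassCount_eq_relIndex _ _ hKH]
  have hN : Oms Q ⊔ (conjPOmega ⇑Q).ker = (psi1 h2 hQ hex m hm).ker := by
    rw [hM]
    exact le_antisymm (sup_le_sup_right (Oms_le_SOs Q) _)
      (sup_le (SOs_le_sup_ker h2 Q hQ hn m hm hneg) le_sup_right)
  have hL : Cfsg.Inn (Cfsg.POmega F ⇑Q) ⊔ (Subgroup.centralizer {conjPOmega ⇑Q g} ⊓
      (chi2 h2 hQ hex m hm).ker.map (conjPOmega ⇑Q))
      = (psi1 h2 hQ hex m hm).ker.map (conjPOmega ⇑Q) := by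
    apply le_antisymm
    · apply sup_le
      · rw [hK]; exact Subgroup.map_mono hNM
      · rintro y ⟨hy1, h, hh, rfl⟩
        refine ⟨h, ?_, rfl⟩
        have hy1' := Subgroup.mem_centralizer_singleton_iff.1 hy1
        exact (mem_ker_psi1_iff h2 hQ hex m hm h).2
          ⟨isSquare_multF_of_commute h2 Q hQ hn hex m hm hme g hχ hord h hy1',
            (chi2_eq_one_iff h2 hQ hex m hm h).1 hh⟩
    · rw [hK, hN]
      exact le_sup_left
  rw [hL, hrelmap]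

end Cfsg.Agent.Lib.Helper43.GS
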