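import Cfsg.Agent.Lib.Helper43.GS.T2
import Cfsg.Agent.Lib.Helper43.LB.F0
import Cfsg.Agent.Lib.Helper44.InndiagMinus

set_option autoImplicit false

/-!
The splitting of the class of an involutory graph automorphism of `PΩ⁻`.
-/

namespace Cfsg.Agent.Lib.Helper43.GS

open Matrix QuadraticMap Module Cfsg.Agent.Lib.Helper13.OOut Cfsg.Agent.Lib.Helper43.PA
  Cfsg.Agent.Lib.Helper43.PO Cfsg.Agent.Lib.Helper44

universe u

variable {F : Type u} [Field F]

theorem minus_splitCount [Fintype F] (hodd : Odd (Fintype.card F)) (m : ℕ) (hm : 3 ≤ m) (a b : F)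
    (hab : ∀ z₁ z₂ : F, z₁ ^ 2 + a * z₁ * z₂ + b * z₂ ^ 2 = 0 → z₁ = 0 ∧ z₂ = 0)
    (γ : MulAut (Cfsg.POmega F (Cfsg.quadFormMinus m F a b)))
    (hγ : Cfsg.IsGraphAutClassPOmegaMinus m a b γ) (hγ2 : orderOf γ = 2) :
    (Cfsg.splitClassCount (Cfsg.inndiagPOmegaMinus m F a b)
        (Cfsg.Inn (Cfsg.POmega F (Cfsg.quadFormMinus m F a b))) γ = 1 ∨
      Cfsg.splitClassCount (Cfsg.inndiagPOmegaMinus m F a b)
        (Cfsg.Inn (Cfsg.POmega F (Cfsg.quadFormMinus m F a b))) γ = 2) ∧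
    (¬ (Even m ∧ Fintype.card F % 4 = 1) →
      Cfsg.splitClassCount (Cfsg.inndiagPOmegaMinus m F a b)
        (Cfsg.Inn (Cfsg.POmega F (Cfsg.quadFormMinus m F a b))) γ = 2) := by
  have h2 : (2 : F) ≠ 0 := two_ne_zero_of_odd_card hodd
  have hQ := minusQF_nondeg m F hab
  have hex := minus_hex (F := F) m a b
  have hn : 5 ≤ Fintype.card ((Fin m ⊕ Fin m) ⊕ Fin 2) := by rw [minus_card]; omega
  obtain ⟨ν, hν⟩ := exists_nonsquare_unit h2
  obtain ⟨δ, u₁, u₂, hu, hδ1, hδ2⟩ := minus_exists_simil' h2 m hab ν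
  have hδk : δ ∈ (chi2 h2 hQ hex (m + 1) (minus_card m)).ker := by
    rw [MonoidHom.mem_ker, chi2_eq_one_iff, hδ1, hδ2, det_minus_simil m a b u₁ u₂ ν hu]
  have heq := autSubgroupOf_eq_map_ker ⇑(minusQF m F a b) (chi2 h2 hQ hex (m + 1) (minus_card m))
    (fun g => Cfsg.PreservesSingularClassesMinus m a b
      (g : Matrix ((Fin m ⊕ Fin m) ⊕ Fin 2) ((Fin m ⊕ Fin m) ⊕ Fin 2) F)) (fun g => by
      rw [minus_preserves_iff h2 m hab, chi2_eq_one_iff])
  have key : ∀ γ : MulAut (Cfsg.POmega F ⇑(minusQF m F a b)),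
      γ ∈ Cfsg.gammaPOmega F ⇑(minusQF m F a b) →
      γ ∉ (chi2 h2 hQ hex (m + 1) (minus_card m)).ker.map (conjPOmega ⇑(minusQF m F a b)) →
      orderOf γ = 2 →
      (Cfsg.splitClassCount ((chi2 h2 hQ hex (m + 1) (minus_card m)).ker.map
            (conjPOmega ⇑(minusQF m F a b)))
          (Cfsg.Inn (Cfsg.POmega F ⇑(minusQF m F a b))) γ = 1 ∨
        Cfsg.splitClassCount ((chi2 h2 hQ hex (m + 1) (minus_card m)).ker.map
            (conjPOmega ⇑(minusQF m F a b)))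
          (Cfsg.Inn (Cfsg.POmega F ⇑(minusQF m F a b))) γ = 2) ∧
      (¬ (Even m ∧ Fintype.card F % 4 = 1) →
        Cfsg.splitClassCount ((chi2 h2 hQ hex (m + 1) (minus_card m)).ker.map
            (conjPOmega ⇑(minusQF m F a b)))
          (Cfsg.Inn (Cfsg.POmega F ⇑(minusQF m F a b))) γ = 2) := by
    intro γ hγ1 hγ3 hord
    rw [gammaPOmega_eq] at hγ1
    obtain ⟨y, rfl⟩ := hγ1
    have hσ : (y : SG F ((Fin m ⊕ Fin m) ⊕ Fin 2)).right = 1 := by
      by_contra hσ
      exact Cfsg.Agent.Lib.Helper43.LB.field_not_two hm hab _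
        (Cfsg.Agent.Lib.Helper43.LB.field_class hm hab y hσ Nat.prime_two hord) hord
    have hk : y ∈ (lam ⇑(minusQF m F a b)).ker := by
      rw [MonoidHom.mem_ker, lam_apply, hσ]
    rw [ker_lam] at hk
    obtain ⟨g, rfl⟩ := hk
    have hTh : Th ⇑(minusQF m F a b) (inlG _ g) = conjPOmega ⇑(minusQF m F a b) g := by
      rw [← Th_inlG]; rfl
    rw [hTh] at hγ3 hord ⊢
    have hχ : chi2 h2 hQ hex (m + 1) (minus_card m) g ≠ 1 := by
      intro h
      exact hγ3 ⟨g, h, rfl⟩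
    have h1 := splitCount_graph h2 (minusQF m F a b) hQ hn hex (m + 1) (minus_card m) δ
      (by rw [hδ2]; exact hν) hδk g hχ hord
    refine ⟨h1.1, fun hne => ?_⟩
    by_cases hneg : negOneO (minusQF m F a b) ∈ Cfsg.Omega F ⇑(minusQF m F a b)
    · exact h1.2 hneg
    · have hmo : Even (m + 1) := by
        rw [minus_negOneO_mem_iff hodd m a b hab] at hneg
        by_contra hme
        have hme' : Even m := by
          rcases Nat.even_or_odd m with h | h
          · exact h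
          · exact absurd h.add_one hme
        obtain ⟨k, hk⟩ := hodd
        have : Fintype.card F % 4 = 1 ∨ Fintype.card F % 4 = 3 := by omega
        rcases this with h | h
        · exact hne ⟨hme', h⟩
        · exact hneg ⟨hme', h⟩
      exact splitCount_graph_two h2 (minusQF m F a b) hQ hn hex (m + 1) (minus_card m) hmo δ
        (by rw [hδ2]; exact hν) hδk g hχ hord hneg
  rw [← heq] at key
  clear heq hδk hδ1 hδ2
  clear δ
  rw [minusQF_coe] at key
  exact key γ hγ.1 hγ.2.1 hγ2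

end Cfsg.Agent.Lib.Helper43.GS
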